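import Mathlib
import Cfsg.Agent.H665.RIM.Defs
import Cfsg.Agent.H257.RIM.EKOf
import Cfsg.Agent.H229.RIM.Top
import Cfsg.Agent.H524.RIM.PX

/-!
# S4816 (RIM), E1: `EK p S` from the covers of `S` (helper524)

`ek_of`: `EK p S` holds if `NoPEx p Hb` holds for every quasisimple cover `σ : Hb → S` (kernel central of order prime
to `p`) which itself has a perfect central extension `ρ : E → Hb` with kernel `≠ 1` of order prime to `p`, central
over `S`, and a faithful linear character `l` of `ker ρ` over which all characters of `E` have degree prime to `p`.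
-/

set_option autoImplicit false
set_option linter.unusedSectionVars false

namespace Cfsg.Agent.H524.RIM

open Cfsg Cfsg.Agent.H665.RIM Cfsg.Agent.H229.RIM
open scoped commutatorElement

universe u

/-- `NoPEx` in terms of `PX` -/
theorem noPEx_of_px {p : ℕ} {H : Type u} [Group H]
    (h : ∀ (V : Type u) [AddCommGroup V] [Finite V] [DistribMulAction H V], PX p H V → False) : NoPEx p H := by
  intro V _ _ _ h1 h2 h3 h4 h5
  exact h V ⟨h1, h2, h3, h4, h5⟩

/-- **E1.** -/
theorem ek_of {p : ℕ} (hp : p.Prime) {S : Type u} [Group S] [Finite S]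
    (h : ∀ (Hb : Type u) [Group Hb] [Finite Hb] (σ : Hb →* S), Function.Surjective σ →
      σ.ker ≤ Subgroup.center Hb → commutator Hb = ⊤ → ¬ p ∣ Nat.card σ.ker →
      ∀ (E : Type u) [Group E] [Finite E] (ρ : E →* Hb), Function.Surjective ρ → ρ.ker ≤ Subgroup.center E →
        (σ.comp ρ).ker ≤ Subgroup.center E → commutator E = ⊤ → ρ.ker ≠ ⊥ → ¬ p ∣ Nat.card (σ.comp ρ).ker →
        ∀ l : ρ.ker →* ℂˣ, Function.Injective l → Bad p ρ.ker l → NoPEx p Hb) : EK p S := by
  intro H V _ _ _ _ _ K N φ π hC hπ hker hKN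
  haveI : Fact p.Prime := ⟨hp⟩
  have hNn : N.Normal := by
    constructor
    intro n hn g
    have h1 : g * n * g⁻¹ = n := by rw [Subgroup.mem_center_iff.1 (hC.cen hn) g, mul_inv_cancel_right]
    rw [h1]
    exact hn
  have hKc : K ≤ Subgroup.center H :=
    fun k hk => H257.RIM.central_of_comm hC.perf k fun g => hC.cen (hKN k hk g)
  let ρ : H →* H ⧸ N := QuotientGroup.mk' N
  have hρ : Function.Surjective ρ := QuotientGroup.mk'_surjective N
  have hρk : ρ.ker = N := QuotientGroup.ker_mk' N
  have hle : N ≤ π.ker := by rw [hker]; exact hC.NK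
  let σ : H ⧸ N →* S := QuotientGroup.lift N π (fun x hx => hle hx)
  have hσρ : ∀ x, σ (ρ x) = π x := fun x => rfl
  have hσ : Function.Surjective σ := fun s => by
    obtain ⟨x, hx⟩ := hπ s
    exact ⟨ρ x, hx⟩
  have hcomp : σ.comp ρ = π := MonoidHom.ext hσρ
  have hσk : σ.ker = K.map ρ := by
    ext y
    obtain ⟨x, rfl⟩ := hρ y
    rw [MonoidHom.mem_ker, hσρ, ← MonoidHom.mem_ker, hker]
    constructor
    · intro hx
      exact ⟨x, hx, rfl⟩
    · rintro ⟨z, hz, hzx⟩
      have h1 : z⁻¹ * x ∈ N := QuotientGroup.eq.1 hzx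
      have h2 := mul_mem hz (hC.NK h1)
      rwa [mul_inv_cancel_left] at h2
  have hσc : σ.ker ≤ Subgroup.center (H ⧸ N) := by
    rw [hσk]
    rintro _ ⟨k, hk, rfl⟩
    rw [Subgroup.mem_center_iff]
    intro g
    obtain ⟨g, rfl⟩ := hρ g
    rw [← map_mul, ← map_mul, Subgroup.mem_center_iff.1 (hKc hk) g]
  have hperf : commutator (H ⧸ N) = ⊤ := by
    have h1 : (commutator H).map ρ = commutator (H ⧸ N) := by
      rw [commutator_def, Subgroup.map_commutator, commutator_def]
      congr 1 <;> exact Subgroup.map_top_of_surjective _ hρ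
    rw [← h1, hC.perf]
    exact Subgroup.map_top_of_surjective _ hρ
  have hpσ : ¬ p ∣ Nat.card σ.ker := by
    intro hd
    apply hC.pK
    rw [hσk] at hd
    exact hd.trans (Subgroup.card_map_dvd K ρ)
  let eN : ρ.ker ≃* N := MulEquiv.subgroupCongr hρk
  have hbad : Bad p ρ.ker (φ.comp eN.toMonoidHom) := by
    intro χ hχ hov
    exact hC.bad χ hχ fun z => hov ⟨z.1, by rw [hρk]; exact z.2⟩
  have hno := h (H ⧸ N) σ hσ hσc hperf hpσ H ρ hρ (by rw [hρk]; exact hC.cen) (by rw [hcomp, hker]; exact hKc) hC.perf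
    (by rw [hρk]; exact hC.Nne) (by rw [hcomp, hker]; exact hC.pK) (φ.comp eN.toMonoidHom)
    (hC.inj.comp eN.injective) hbad
  -- the action of `H / N`
  let τ : H →* (AddMonoid.End V)ˣ := (DistribMulAction.toAddMonoidEnd H V).toHomUnits
  have hτ : ∀ n ∈ N, τ n = 1 := by
    intro g hg
    refine Units.ext (AddMonoidHom.ext fun v => ?_)
    exact (hC.ker g).2 hg v
  let τ' : H ⧸ N →* (AddMonoid.End V)ˣ := QuotientGroup.lift N τ hτ
  letI : DistribMulAction (H ⧸ N) V := DistribMulAction.compHom V ((Units.coeHom (AddMonoid.End V)).comp τ')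
  have hact : ∀ (g : H) (v : V), ρ g • v = g • v := fun g v => rfl
  refine hno V hC.exp hC.nt ?_ ?_ ?_
  · intro s hs
    obtain ⟨g, rfl⟩ := hρ s
    have h5 : g ∈ N := (hC.ker g).1 fun v => by rw [← hact]; exact hs v
    rw [← hρk] at h5
    exact h5
  · intro W hW
    exact hC.irr W fun g w hw => by rw [← hact]; exact hW _ w hw
  · intro v hv
    apply hC.P1 v
    have h5 : (MulAction.stabilizer (H ⧸ N) v).comap ρ = MulAction.stabilizer H v := by
      ext g
      rw [Subgroup.mem_comap, MulAction.mem_stabilizer_iff, MulAction.mem_stabilizer_iff, hact]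
    rw [← h5, Subgroup.index_comap_of_surjective _ hρ]
    exact hv

/-- a cover with trivial kernel -/
theorem noPEx_congr {p : ℕ} {S Hb : Type u} [Group S] [Group Hb] (e : Hb ≃* S) (h : NoPEx p S) : NoPEx p Hb := by
  intro V _ _ _ h1 h2 h3 h4 h5
  letI : DistribMulAction S V := DistribMulAction.compHom V e.symm.toMonoidHom
  have hact : ∀ (g : Hb) (v : V), e g • v = g • v := by
    intro g v
    change e.symm (e g) • v = g • v
    rw [e.symm_apply_apply]
  refine h V h1 h2 ?_ ?_ ?_
  · intro s hs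
    have h6 := h3 (e.symm s) (fun v => by rw [← hact, e.apply_symm_apply]; exact hs v)
    rw [← e.apply_symm_apply s, h6, map_one]
  · intro W hW
    exact h4 W fun g w hw => by rw [← hact]; exact hW _ w hw
  · intro v hv
    apply h5 v
    have h6 : (MulAction.stabilizer S v).comap e.toMonoidHom = MulAction.stabilizer Hb v := by
      ext g
      rw [Subgroup.mem_comap, MulAction.mem_stabilizer_iff, MulAction.mem_stabilizer_iff]
      exact iff_of_eq (congrArg (· = v) (hact g v))
    rw [← h6, Subgroup.index_comap_of_surjective _ e.surjective]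
    exact hv

/-- **E1, one prime order at a time**: with `m₁ = |ker σ|`, `m₂ = |ker ρ|`, `m₁ m₂ = |ker (σ ρ)|` -/
theorem card_ker_comp {S Hb E : Type*} [Group S] [Group Hb] [Group E] (σ : Hb →* S) (ρ : E →* Hb)
    (hρ : Function.Surjective ρ) : Nat.card (σ.comp ρ).ker = Nat.card σ.ker * Nat.card ρ.ker := by
  let f : (σ.comp ρ).ker →* σ.ker := (ρ.comp (Subgroup.subtype _)).codRestrict σ.ker (fun x => x.2)
  have hf : Function.Surjective f := by
    rintro ⟨y, hy⟩
    obtain ⟨x, rfl⟩ := hρ y
    exact ⟨⟨x, hy⟩, rfl⟩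
  have h1 : Nat.card f.ker = Nat.card ρ.ker := by
    apply Nat.card_congr
    exact
      { toFun := fun x => ⟨x.1.1, congrArg Subtype.val x.2⟩
        invFun := fun x => ⟨⟨x.1, by
          rw [MonoidHom.mem_ker, MonoidHom.comp_apply, x.2, map_one]⟩, Subtype.ext x.2⟩
        left_inv := fun x => rfl
        right_inv := fun x => rfl }
  have h2 := Subgroup.card_mul_index f.ker
  rw [Subgroup.index_ker, MonoidHom.range_eq_top.2 hf, Nat.card_congr (Subgroup.topEquiv (G := σ.ker)).toEquiv, h1,
    mul_comm] at h2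
  exact h2.symm

end Cfsg.Agent.H524.RIM
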